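/- The Steinberg character of a Chevalley group is its only character of defect zero. -/
import Cfsg.Agent.H67.LieInst
import Cfsg.Agent.H67.SBNChar

set_option autoImplicit false
set_option linter.unusedSectionVars false

namespace H67

open Cfsg Cfsg.Lie
open H64 (RGD nn hh)
open H63 (RS Rt simpleR negR)
open H65 (Tab Comm xU)

variable (D : ChevalleyDatum) [RS D] [Tab D] [Comm D] (F : Type*) [Field F]
variable (p : ℕ) [Fact p.Prime] [CharP F p] [Finite F]

theorem nn_mem_group (i : Fin D.rank) {t : F} (ht : t ≠ 0) :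
    nn D (xU D F) (D.simple i) t ∈ D.group F :=
  (chevM_Gp D F).ge ((chevM D F).N_le_Gp (H68.stB_xU.nn_mem_N (simpleR i) ht))

theorem nn_mem_M (i : Fin D.rank) {t : F} (ht : t ≠ 0) :
    (⟨_, nn_mem_group D F i ht⟩ : D.group F) ∈ (chevSBN D F p).M (chevEq D F p i) := by
  have hx : ∀ u, xU D F (D.simple i) u ∈ (chevM D F).U := fun u =>
    (chevM D F).X_le_U ((H64.wdata D).pos_p i) (H64.x_mem_XR D _ (simpleR i) u)
  have hG : (chevM D F).U ≤ D.group F := (chevM D F).U_le_Gp.trans (chevM_Gp D F).ge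
  have hy := ((chevM D F).act_n i).inv.conj_mem
    (H64.x_mem_XR D (xU D F) (negR (simpleR i)) (-t⁻¹))
  rw [H64.WData.sW_inv, inv_inv] at hy
  have hy' : ((chevM D F).n i)⁻¹ * xU D F (negR (simpleR i) : Rt D) (-t⁻¹) * (chevM D F).n i ∈
      (chevM D F).X ((H64.wdata D).p i) := by
    rw [← (H64.wdata D).s_neg_p i]; exact hy
  refine ⟨by rw [chevSBN_N]; exact H68.stB_xU.nn_mem_N (simpleR i) ht,
    ⟨_, hG (hx t)⟩, by rw [chevSBN_U]; exact hx t, ⟨_, hG (hx t)⟩, by rw [chevSBN_U]; exact hx t,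
    ⟨_, hG ((chevM D F).X_le_U ((H64.wdata D).pos_p i) hy')⟩, by rw [chevSBN_X]; exact hy',
    fun e => ?_, Subtype.ext ?_⟩
  · have h1 : ((chevM D F).n i)⁻¹ * xU D F (negR (simpleR i) : Rt D) (-t⁻¹) * (chevM D F).n i = 1 :=
      congrArg Subtype.val e
    rw [mul_assoc, inv_mul_eq_one, right_eq_mul] at h1
    simpa [ht] using H68.xU_eq_one _ _ h1
  · simp only [Subgroup.coe_mul, Subgroup.coe_inv, chevEq_val, H64.nn_eq, H63.negR_val,
      H63.simpleR_val]
    group

theorem chevSBN_H_le : (chevSBN D F p).H ≤ Subgroup.closure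
    {h | ∃ s, ∃ n ∈ (chevSBN D F p).M s, ∃ n' ∈ (chevSBN D F p).M s, h = n⁻¹ * n'} := by
  rw [chevSBN_H, Subgroup.subgroupOf, ← Subgroup.comap_map_eq_self_of_injective
    (D.group F).subtype_injective (Subgroup.closure _)]
  refine Subgroup.comap_mono ?_
  change H64.HH D (xU D F) ≤ _
  rw [H68.stN_xU.HH_eq_HS]
  refine (Subgroup.closure_le _).2 ?_
  rintro _ ⟨i, t, ht, rfl⟩
  refine ⟨_, Subgroup.subset_closure ⟨_, _, nn_mem_M D F p i (neg_ne_zero.2 ht), _,
    nn_mem_M D F p i (neg_ne_zero.2 one_ne_zero), rfl⟩, ?_⟩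
  have := (H68.st_xU (K := F)).nn_inv (simpleR i : Rt D) (-t)
  rw [H63.simpleR_val, neg_neg] at this
  simp [H64.hh_eq, this]

theorem steinbergCharacter_eq_stBN [Fintype (chevSBN D F p).P.S] :
    D.steinbergCharacter F = stBN (chevSBN D F p).P := by
  rw [steinbergCharacter_eq]
  funext g
  refine Fintype.sum_equiv (chevEq D F p).finsetCongr _ _ fun J => ?_
  rw [Equiv.finsetCongr_apply, Finset.card_map, Finset.coe_map, Equiv.coe_toEmbedding]
  rw [show cellSubgroup _ _ = _ from chevSBN_PJ D F p J, chevT, rgdRes_PJ]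

end H67
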