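/- The generic Hecke algebra of a finite Coxeter group through its left and right regular
matrices; the Higman map; semicontinuity of ranks. -/
import Cfsg.Agent.H67.CoxDouble

set_option autoImplicit false
set_option linter.unusedSectionVars false

namespace H67

open Matrix

theorem exists_mul_mul_eq_one {K m n : Type*} [Field K] [Fintype m] [Fintype n] [DecidableEq n]
    (A : Matrix m n K) {r : ℕ} (hr : A.rank = r) :
    ∃ (P : Matrix (Fin r) m K) (Q : Matrix n (Fin r) K), P * A * Q = 1 := by
  classical
  let f := A.mulVecLin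
  let b := Module.finBasisOfFinrankEq K (LinearMap.range f) hr
  obtain ⟨i, hi⟩ := f.rangeRestrict.exists_rightInverse_of_surjective f.range_rangeRestrict
  obtain ⟨j, hj⟩ := (LinearMap.range f).subtype.exists_leftInverse_of_injective
    (LinearMap.range f).ker_subtype
  refine ⟨LinearMap.toMatrix' (b.equivFun.toLinearMap ∘ₗ j),
    LinearMap.toMatrix' (i ∘ₗ b.equivFun.symm.toLinearMap), ?_⟩
  apply Matrix.toLin'.injective
  rw [Matrix.toLin'_mul, Matrix.toLin'_mul, Matrix.toLin'_toMatrix', Matrix.toLin'_toMatrix',
    Matrix.toLin'_one]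
  refine LinearMap.ext fun v => ?_
  have h1 := LinearMap.congr_fun hi (b.equivFun.symm v)
  have h2 := LinearMap.congr_fun hj (b.equivFun.symm v)
  simp only [LinearMap.comp_apply, LinearMap.id_apply] at h1 h2
  have h3 : Matrix.toLin' A (i (b.equivFun.symm v)) =
      (LinearMap.range f).subtype (b.equivFun.symm v) := congrArg Subtype.val h1
  simp only [LinearMap.comp_apply, LinearEquiv.coe_coe, LinearMap.id_apply]
  rw [h3, h2]
  exact b.equivFun.apply_symm_apply v

theorem exists_poly_rank_le {K m n : Type*} [Field K] [Fintype m] [Fintype n] [DecidableEq n]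
    (A : Matrix m n (Polynomial K)) (x₀ : K) : ∃ d : Polynomial K, d ≠ 0 ∧ ∀ x, d.eval x ≠ 0 →
      (A.map (Polynomial.evalRingHom x₀)).rank ≤ (A.map (Polynomial.evalRingHom x)).rank := by
  generalize hr : (A.map (Polynomial.evalRingHom x₀)).rank = r
  obtain ⟨P, Q, h⟩ := exists_mul_mul_eq_one (A.map (Polynomial.evalRingHom x₀)) hr
  have key : ∀ x, (P.map Polynomial.C * A * Q.map Polynomial.C).det.eval x =
      (P * A.map (Polynomial.evalRingHom x) * Q).det := by
    intro x
    rw [← Polynomial.coe_evalRingHom, RingHom.map_det, RingHom.mapMatrix_apply, Matrix.map_mul,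
      Matrix.map_mul, Matrix.map_map, Matrix.map_map]
    congr 3 <;> ext <;> simp
  refine ⟨(P.map Polynomial.C * A * Q.map Polynomial.C).det, fun h0 => ?_, fun x hx => ?_⟩
  · have := key x₀
    rw [h0, h] at this
    simp at this
  · rw [key] at hx
    have := Matrix.rank_of_det_ne_zero hx
    rw [Fintype.card_fin] at this
    rw [← this]
    exact (Matrix.rank_mul_le_left _ _).trans (Matrix.rank_mul_le_right _ _)

/-- semicontinuity of ranks -/
theorem rank_add_rank_le_of_poly {K l m n : Type*} [Field K] [Infinite K] [Fintype l] [Fintype m]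
    [Fintype n] (A : Matrix l m (Polynomial K)) (B : Matrix m n (Polynomial K)) (h : A * B = 0)
    (x₀ x₁ : K) : (A.map (Polynomial.evalRingHom x₀)).rank +
      (B.map (Polynomial.evalRingHom x₁)).rank ≤ Fintype.card m := by
  classical
  obtain ⟨d, hd, h1⟩ := exists_poly_rank_le A x₀
  obtain ⟨e, he, h2⟩ := exists_poly_rank_le B x₁
  obtain ⟨x, hx⟩ : ∃ x, (d * e).eval x ≠ 0 := by
    by_contra! h0
    exact mul_ne_zero hd he (Polynomial.funext (by simpa using h0))
  rw [Polynomial.eval_mul, mul_ne_zero_iff] at hx
  refine (add_le_add (h1 x hx.1) (h2 x hx.2)).trans (Matrix.rank_add_rank_le_card_of_mul_eq_zero ?_)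
  rw [← Matrix.map_mul, h]
  simp

variable {W B : Type*} [Group W] [Fintype W] [DecidableEq W] (s : B → W) {R : Type*} [CommRing R]

/-- left multiplication by `T_s` -/
noncomputable def heL (x : R) (i : B) : Matrix W W R := Matrix.of fun u w =>
  (if w = s i * u then (if len s (s i * u) < len s u then 1 else x) else 0) +
  (if w = u then (if len s (s i * u) < len s u then x - 1 else 0) else 0)

/-- right multiplication by `T_s` -/
noncomputable def heR (x : R) (i : B) : Matrix W W R := Matrix.of fun u w =>
  (if w = u * s i then (if len s (u * s i) < len s u then 1 else x) else 0) +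
  (if w = u then (if len s (u * s i) < len s u then x - 1 else 0) else 0)

theorem heL_mulVec (x : R) (i : B) (v : W → R) (u : W) : (heL s x i *ᵥ v) u =
    if len s (s i * u) < len s u then v (s i * u) + (x - 1) * v u else x * v (s i * u) := by
  simp only [heL, mulVec, dotProduct, of_apply, add_mul, ite_mul, zero_mul, Finset.sum_add_distrib,
    Finset.sum_ite_eq', Finset.mem_univ, if_true]
  split_ifs <;> simp

theorem heR_mulVec (x : R) (i : B) (v : W → R) (u : W) : (heR s x i *ᵥ v) u =
    if len s (u * s i) < len s u then v (u * s i) + (x - 1) * v u else x * v (u * s i) := by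
  simp only [heR, mulVec, dotProduct, of_apply, add_mul, ite_mul, zero_mul, Finset.sum_add_distrib,
    Finset.sum_ite_eq', Finset.mem_univ, if_true]
  split_ifs <;> simp

theorem heL_map {S : Type*} [CommRing S] (φ : R →+* S) (x : R) (i : B) :
    φ.mapMatrix (heL s x i) = heL s (φ x) i := by
  ext u w
  simp only [RingHom.mapMatrix_apply, map_apply, heL, of_apply]
  split_ifs <;> simp

theorem heR_map {S : Type*} [CommRing S] (φ : R →+* S) (x : R) (i : B) :
    φ.mapMatrix (heR s x i) = heR s (φ x) i := by
  ext u w
  simp only [RingHom.mapMatrix_apply, map_apply, heR, of_apply]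
  split_ifs <;> simp

open Classical in
/-- a reduced word -/
noncomputable def redw (w : W) : List B :=
  if h : ∃ l : List B, l.length = len s w ∧ wp s l = w then h.choose else []

/-- left multiplication by `T_w` -/
noncomputable def heLw (x : R) (w : W) : Matrix W W R := ((redw s w).map (heL s x)).prod

/-- right multiplication by `T_{w⁻¹}` -/
noncomputable def heRw (x : R) (w : W) : Matrix W W R := ((redw s w).map (heR s x)).prod

/-- the maximal length -/
noncomputable def maxLen : ℕ := Finset.univ.sup (len s)

theorem len_le_maxLen (w : W) : len s w ≤ maxLen s := Finset.le_sup (Finset.mem_univ w)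

/-- the Higman map -/
noncomputable def heTau (x : R) : Matrix W W R :=
  ∑ w, x ^ (maxLen s - len s w) • (heLw s x w * heRw s x w)

/-- the commutator map -/
noncomputable def heC (x : R) : Matrix (B × W) W R :=
  Matrix.of fun p w => (heL s x p.1 - heR s x p.1) p.2 w

theorem heTau_map {S : Type*} [CommRing S] (φ : R →+* S) (x : R) :
    (heTau s x).map φ = heTau s (φ x) := by
  rw [← RingHom.mapMatrix_apply, heTau, heTau, map_sum]
  refine Finset.sum_congr rfl fun w _ => ?_
  rw [RingHom.mapMatrix_apply, Matrix.map_smul' _ _ _ (map_mul φ), ← RingHom.mapMatrix_apply,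
    map_mul, map_pow, heLw, heRw, heLw, heRw, map_list_prod, map_list_prod, List.map_map,
    List.map_map]
  congr 4
  · funext i; exact heL_map s φ x i
  · funext i; exact heR_map s φ x i

theorem heC_map {S : Type*} [CommRing S] (φ : R →+* S) (x : R) :
    (heC s x).map φ = heC s (φ x) := by
  ext p w
  rw [map_apply, heC, heC, of_apply, of_apply, ← heL_map s φ, ← heR_map s φ, ← map_sub]
  rfl

theorem heC_mulVec_eq_zero_iff (x : R) (v : W → R) :
    heC s x *ᵥ v = 0 ↔ ∀ i, heL s x i *ᵥ v = heR s x i *ᵥ v := by
  have : ∀ p : B × W, (heC s x *ᵥ v) p = (heL s x p.1 *ᵥ v - heR s x p.1 *ᵥ v) p.2 := by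
    intro p
    rw [← sub_mulVec]
    rfl
  simp only [funext_iff, this, Prod.forall, Pi.zero_apply, Pi.sub_apply, sub_eq_zero]

namespace Exch

variable {s} {P : B → Set W} (h : Exch s P)
include h

theorem redw_spec (w : W) : (redw s w).length = len s w ∧ wp s (redw s w) = w := by
  rw [redw, dif_pos (h.exists_reduced w)]
  exact (h.exists_reduced w).choose_spec

theorem heL_mul_heR (x : R) (i j : B) : heL s x i * heR s x j = heR s x j * heL s x i := by
  refine Matrix.ext_of_mulVec_single fun w => funext fun u => ?_
  generalize (Pi.single w 1 : W → R) = v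
  rw [← mulVec_mulVec, ← mulVec_mulVec]
  simp only [heL_mulVec, heR_mulVec, ← mul_assoc]
  have a1 := h.len_s_mul_ne i u
  have a2 := h.len_mul_s_ne u j
  have a3 := h.len_mul_s_ne (s i * u) j
  have a4 := h.len_s_mul_ne i (u * s j)
  rw [← mul_assoc] at a4
  by_cases c1 : len s (s i * u) < len s u <;> by_cases c2 : len s (u * s j) < len s u <;>
    by_cases c3 : len s (s i * u * s j) < len s (s i * u) <;>
    by_cases c4 : len s (s i * u * s j) < len s (u * s j) <;>
    simp only [c1, c2, c3, c4, if_true, if_false] <;> try (first | ring1 | omega)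
  · have e := h.exch i j (u * s j) (h.mem_iff_len.2 (by rw [← mul_assoc]; omega))
      (by rw [h.mul_s_mul_s, h.mem_iff_len]; omega)
    have e' : s i * u = u * s j := by
      rw [← mul_assoc] at e
      exact mul_right_cancel e
    rw [e']
  · have e := h.exch i j u (h.mem_iff_len.2 (by omega))
      (by rw [h.mem_iff_len, ← mul_assoc]; omega)
    rw [e]

theorem heL_single (x : R) (i : B) (w : W) : heL s x i *ᵥ Pi.single w 1 =
    if len s w < len s (s i * w) then Pi.single (s i * w) 1
    else x • Pi.single (s i * w) 1 + (x - 1) • Pi.single w 1 := by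
  funext u
  rw [heL_mulVec]
  have a1 := h.len_s_mul_ne i w
  have hne : s i * w ≠ w := fun e => by rw [e] at a1; omega
  by_cases e1 : u = w
  · subst e1
    by_cases c : len s u < len s (s i * u)
    · simp [c, c.le.not_gt, hne, hne.symm]
    · simp [c, show len s (s i * u) < len s u by omega, hne, hne.symm]
  · by_cases e2 : u = s i * w
    · subst e2
      rw [h.s_mul_s_mul]
      by_cases c : len s w < len s (s i * w)
      · simp [c, hne]
      · simp [c, hne]
    · have e3 : s i * u ≠ w := fun e => e2 (by rw [← e, h.s_mul_s_mul])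
      split_ifs <;> simp [e1, e2, e3]

theorem heR_single (x : R) (i : B) (w : W) : heR s x i *ᵥ Pi.single w⁻¹ 1 =
    if len s w < len s (s i * w) then Pi.single (s i * w)⁻¹ 1
    else x • Pi.single (s i * w)⁻¹ 1 + (x - 1) • Pi.single w⁻¹ 1 := by
  funext u
  have := congrFun (h.heL_single x i w) u⁻¹
  have e : ∀ a b : W, (Pi.single a⁻¹ 1 : W → R) b = (Pi.single a 1 : W → R) b⁻¹ := by
    intro a b
    simp only [Pi.single_apply, inv_eq_iff_eq_inv]
  rw [heL_mulVec] at this
  rw [heR_mulVec, h.len_mul_s, ← h.len_inv u, e, e, _root_.mul_inv_rev, h.inv_s, this]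
  split_ifs <;> simp only [Pi.add_apply, Pi.smul_apply, e]

theorem prod_heL_single (x : R) (l : List B) (hl : l.length = len s (wp s l)) :
    (l.map (heL s x)).prod *ᵥ Pi.single 1 1 = Pi.single (wp s l) 1 := by
  induction l with
  | nil => rw [List.map_nil, List.prod_nil, one_mulVec, wp_nil]
  | cons i l ih =>
    have h1 := h.reduced_tail hl
    rw [List.map_cons, List.prod_cons, ← mulVec_mulVec, ih h1, h.heL_single, if_pos, wp_cons]
    rw [wp_cons, List.length_cons] at hl
    omega

theorem prod_heR_single (x : R) (l : List B) (hl : l.length = len s (wp s l)) :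
    (l.map (heR s x)).prod *ᵥ Pi.single 1 1 = Pi.single (wp s l)⁻¹ 1 := by
  induction l with
  | nil => rw [List.map_nil, List.prod_nil, one_mulVec, wp_nil, inv_one]
  | cons i l ih =>
    have h1 := h.reduced_tail hl
    rw [List.map_cons, List.prod_cons, ← mulVec_mulVec, ih h1, h.heR_single, if_pos, wp_cons]
    rw [wp_cons, List.length_cons] at hl
    omega

theorem heLw_single (x : R) (w : W) : heLw s x w *ᵥ Pi.single 1 1 = Pi.single w 1 := by
  obtain ⟨h1, h2⟩ := h.redw_spec w
  rw [heLw, h.prod_heL_single x _ (by rw [h1, h2]), h2]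

theorem heRw_single (x : R) (w : W) : heRw s x w *ᵥ Pi.single 1 1 = Pi.single w⁻¹ 1 := by
  obtain ⟨h1, h2⟩ := h.redw_spec w
  rw [heRw, h.prod_heR_single x _ (by rw [h1, h2]), h2]

theorem commute_heLw_heR (x : R) (w : W) (j : B) : Commute (heLw s x w) (heR s x j) :=
  Commute.list_prod_left _ _ fun M hM => by
    obtain ⟨i, -, rfl⟩ := List.mem_map.1 hM
    exact h.heL_mul_heR x i j

theorem commute_heRw_heL (x : R) (w : W) (j : B) : Commute (heRw s x w) (heL s x j) :=
  Commute.list_prod_left _ _ fun M hM => by
    obtain ⟨i, -, rfl⟩ := List.mem_map.1 hM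
    exact (h.heL_mul_heR x j i).symm

theorem eq_of_commute_heR (x : R) {M N : Matrix W W R} (hM : ∀ j, Commute M (heR s x j))
    (hN : ∀ j, Commute N (heR s x j)) (e : M *ᵥ Pi.single 1 1 = N *ᵥ Pi.single 1 1) : M = N := by
  refine Matrix.ext_of_mulVec_single fun w => ?_
  have c : ∀ M : Matrix W W R, (∀ j, Commute M (heR s x j)) → Commute M (heRw s x w⁻¹) :=
    fun M hM => Commute.list_prod_right _ _ fun A hA => by
      obtain ⟨i, -, rfl⟩ := List.mem_map.1 hA
      exact hM i
  rw [← inv_inv w, ← h.heRw_single x, mulVec_mulVec, mulVec_mulVec, (c M hM).eq, (c N hN).eq,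
    ← mulVec_mulVec, ← mulVec_mulVec, e]

theorem eq_of_commute_heL (x : R) {M N : Matrix W W R} (hM : ∀ j, Commute M (heL s x j))
    (hN : ∀ j, Commute N (heL s x j)) (e : M *ᵥ Pi.single 1 1 = N *ᵥ Pi.single 1 1) : M = N := by
  refine Matrix.ext_of_mulVec_single fun w => ?_
  have c : ∀ M : Matrix W W R, (∀ j, Commute M (heL s x j)) → Commute M (heLw s x w) :=
    fun M hM => Commute.list_prod_right _ _ fun A hA => by
      obtain ⟨i, -, rfl⟩ := List.mem_map.1 hA
      exact hM i
  rw [← h.heLw_single x, mulVec_mulVec, mulVec_mulVec, (c M hM).eq, (c N hN).eq,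
    ← mulVec_mulVec, ← mulVec_mulVec, e]

theorem heL_mul_heLw (x : R) (i : B) (w : W) : heL s x i * heLw s x w =
    if len s w < len s (s i * w) then heLw s x (s i * w)
    else x • heLw s x (s i * w) + (x - 1) • heLw s x w := by
  refine h.eq_of_commute_heR x (fun j => Commute.mul_left (h.heL_mul_heR x i j)
    (h.commute_heLw_heR x w j)) (fun j => ?_) ?_
  · split_ifs
    · exact h.commute_heLw_heR x _ j
    · exact ((h.commute_heLw_heR x _ j).smul_left x).add_left
        ((h.commute_heLw_heR x _ j).smul_left _)
  · rw [← mulVec_mulVec, h.heLw_single, h.heL_single]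
    split_ifs
    · rw [h.heLw_single]
    · rw [add_mulVec, smul_mulVec, smul_mulVec, h.heLw_single, h.heLw_single]

theorem heR_mul_heRw (x : R) (i : B) (w : W) : heR s x i * heRw s x w =
    if len s w < len s (s i * w) then heRw s x (s i * w)
    else x • heRw s x (s i * w) + (x - 1) • heRw s x w := by
  refine h.eq_of_commute_heL x (fun j => Commute.mul_left (h.heL_mul_heR x j i).symm
    (h.commute_heRw_heL x w j)) (fun j => ?_) ?_
  · split_ifs
    · exact h.commute_heRw_heL x _ j
    · exact ((h.commute_heRw_heL x _ j).smul_left x).add_left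
        ((h.commute_heRw_heL x _ j).smul_left _)
  · rw [← mulVec_mulVec, h.heRw_single, h.heR_single]
    split_ifs
    · rw [h.heRw_single]
    · rw [add_mulVec, smul_mulVec, smul_mulVec, h.heRw_single, h.heRw_single]

theorem heL_mul_heTau (x : R) (i : B) : heL s x i * heTau s x = heR s x i * heTau s x := by
  rw [← sub_eq_zero, heTau, Finset.mul_sum, Finset.mul_sum, ← Finset.sum_sub_distrib]
  let f : W → Matrix W W R := fun w => x ^ (maxLen s - len s w) •
    (heL s x i * heLw s x w * heRw s x w - heLw s x w * (heR s x i * heRw s x w))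
  have key : ∀ w, len s w < len s (s i * w) → f w + f (s i * w) = 0 := by
    intro w hw
    have a1 := h.len_s_mul_ne i w
    have a2 := len_le_maxLen s (s i * w)
    have e : maxLen s - len s w = maxLen s - len s (s i * w) + 1 := by omega
    simp only [f, h.heL_mul_heLw, h.heR_mul_heRw, h.s_mul_s_mul, if_pos hw, if_neg hw.le.not_gt, e,
      pow_succ, add_mul, mul_add, smul_mul_assoc, mul_smul_comm]
    module
  trans ∑ w, f w
  · refine Finset.sum_congr rfl fun w _ => ?_
    simp only [f, mul_smul_comm, smul_sub, ← mul_assoc, (h.commute_heLw_heR x w i).eq]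
  refine Finset.sum_involution (fun w _ => s i * w) (fun w _ => ?_) (fun w _ _ e => ?_)
    (fun _ _ => Finset.mem_univ _) fun w _ => h.s_mul_s_mul i w
  · have a1 := h.len_s_mul_ne i w
    by_cases c : len s w < len s (s i * w)
    · exact key w c
    · have := key (s i * w) (by rw [h.s_mul_s_mul]; omega)
      rwa [h.s_mul_s_mul, add_comm] at this
  · exact h.s_ne_one i (mul_eq_right.1 e)

theorem heC_mul_heTau (x : R) : heC s x * heTau s x = 0 := by
  ext p w
  have : (heL s x p.1 - heR s x p.1) * heTau s x = 0 := by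
    rw [sub_mul, h.heL_mul_heTau, sub_self]
  exact congrFun (congrFun this p.2) w

theorem rank_heC_add_rank_heTau_le [Fintype B] {K : Type*} [Field K] [Infinite K] (x y : K) :
    (heC s x).rank + (heTau s y).rank ≤ Fintype.card W := by
  have := rank_add_rank_le_of_poly _ _ (h.heC_mul_heTau (Polynomial.X : Polynomial K)) x y
  rwa [heC_map, heTau_map, Polynomial.coe_evalRingHom, Polynomial.coe_evalRingHom,
    Polynomial.eval_X, Polynomial.eval_X] at this

end Exch

end H67
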