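/- The number of irreducible constituents of the permutation character on the chambers equals the
number of conjugacy classes of the Weyl group (equal parameters). -/
import Cfsg.Agent.H67.Hecke
import Cfsg.Agent.H67.StChar

set_option autoImplicit false
set_option linter.unusedSectionVars false

namespace H67

open Matrix Cfsg H28
open scoped ComplexOrder ComplexConjugate

theorem card_smul_eq_mul_ncard {G Y : Type*} [Group G] [Finite G] [MulAction G Y] (y y' : Y)
    (h : y' ∈ MulAction.orbit G y) :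
    Nat.card {g : G // g • y = y'} * Nat.card (MulAction.orbit G y) = Nat.card G := by
  obtain ⟨g₀, rfl⟩ := h
  rw [← (MulAction.stabilizer G y).card_mul_index, MulAction.index_stabilizer, Nat.card_coe_set_eq]
  congr 1
  refine Nat.card_congr ⟨fun g => ⟨g₀⁻¹ * g, ?_⟩, fun k => ⟨g₀ * k, ?_⟩, fun g => ?_, fun k => ?_⟩
  · rw [MulAction.mem_stabilizer_iff, mul_smul, g.2, inv_smul_smul]
  · rw [mul_smul, k.2]
  · simp
  · simp

section perm

variable {G : Type*} (X : Type*) [Group G] [Fintype G] [MulAction G X] [Fintype X] [DecidableEq X]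

/-- permutation matrix -/
def pmat (g : G) : Matrix X X ℂ := Matrix.of fun a b => if g • b = a then 1 else 0

/-- the matrix of an element of the group algebra -/
noncomputable def cmat (f : G → ℂ) : Matrix X X ℂ := ∑ g, f g • pmat X g

/-- the permutation character -/
noncomputable def pchar (G : Type*) [Group G] [MulAction G X] : G → ℂ :=
  fun g => (Nat.card (MulAction.fixedBy X g) : ℂ)

variable {X}

theorem pmat_mul_apply (g : G) (M : Matrix X X ℂ) (a b : X) :
    (pmat X g * M) a b = M (g⁻¹ • a) b := by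
  simp only [mul_apply, pmat, of_apply, ite_mul, one_mul, zero_mul, smul_eq_iff_eq_inv_smul,
    Finset.sum_ite_eq', Finset.mem_univ, if_true]

theorem mul_pmat_apply (g : G) (M : Matrix X X ℂ) (a b : X) :
    (M * pmat X g) a b = M a (g • b) := by
  simp only [mul_apply, pmat, of_apply, mul_ite, mul_one, mul_zero, Finset.sum_ite_eq,
    Finset.mem_univ, if_true]

theorem pmat_mul (g h : G) : pmat X g * pmat X h = pmat X (g * h) := by
  ext a b
  rw [mul_pmat_apply]
  simp only [pmat, of_apply, mul_smul]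

theorem trace_pmat (g : G) : (pmat X g).trace = pchar X G g := by
  simp only [trace, diag, pmat, of_apply, Finset.sum_boole, pchar]
  rw [Nat.card_eq_fintype_card, Fintype.card_subtype]
  rfl

theorem cmat_smul_smul {f : G → ℂ} (hf : IsClassFunction G f) (g : G) (a b : X) :
    cmat X f (g • a) (g • b) = cmat X f a b := by
  simp only [cmat, Matrix.sum_apply, Matrix.smul_apply, pmat, of_apply]
  refine Fintype.sum_equiv (MulAut.conj g⁻¹).toEquiv _ _ fun h => ?_
  simp only [MulEquiv.toEquiv_eq_coe, EquivLike.coe_coe, MulAut.conj_apply, inv_inv,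
    hf.apply_conj', mul_smul, inv_smul_eq_iff]

theorem commute_cmat (f : G → ℂ) {M : Matrix X X ℂ} (hM : ∀ (g : G) a b, M (g • a) (g • b) = M a b) :
    Commute M (cmat X f) := by
  refine Commute.sum_right _ _ _ fun g _ => Commute.smul_right ?_ _
  ext a b
  rw [mul_pmat_apply, pmat_mul_apply, ← hM g (g⁻¹ • a), smul_inv_smul]

theorem cmat_mul_cmat {χ ψ : G → ℂ} (hχ : IsCharacter G χ) (hψ : IsIrrCharacter G ψ) :
    cmat X χ * cmat X ψ = ((Nat.card G * classInner ψ χ) / ψ 1) • cmat X ψ := by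
  have h1 : (Nat.card G : ℂ) * classInner ψ χ = ∑ g, χ g⁻¹ * ψ g := by
    rw [card_mul_classInner]
    exact Finset.sum_congr rfl fun g _ => by rw [hχ.apply_inv, mul_comm]
  simp only [cmat, Finset.sum_mul, Finset.mul_sum, smul_mul_assoc, mul_smul_comm, pmat_mul,
    Finset.smul_sum, smul_smul]
  calc _ = ∑ h, ∑ g, (ψ h * χ g) • pmat X (g * h) := rfl
    _ = ∑ g, ∑ k, (χ g⁻¹ * ψ (g * k)) • pmat X k := by
        rw [Finset.sum_comm]
        refine Fintype.sum_equiv (Equiv.inv G) _ _ fun g => ?_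
        refine Fintype.sum_equiv (Equiv.mulLeft g) _ _ fun k => ?_
        simp [mul_comm]
    _ = _ := by
        rw [Finset.sum_comm]
        refine Finset.sum_congr rfl fun k _ => ?_
        rw [← Finset.sum_smul, hψ.sum_mul_apply_mul hχ.comp_inv.isClassFunction, h1]

theorem trace_cmat (f : G → ℂ) : (cmat X f).trace = Nat.card G * classInner f (pchar X G) := by
  simp only [cmat, trace_sum, trace_smul, trace_pmat, card_mul_classInner, pchar, map_natCast,
    smul_eq_mul]

theorem cmat_eq_zero_iff {χ : G → ℂ} (hχ : IsIrrCharacter G χ) :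
    cmat X χ = 0 ↔ classInner χ (pchar X G) = 0 := by
  constructor
  · intro h
    have := trace_cmat (X := X) χ
    rw [h, trace_zero, eq_comm, mul_eq_zero] at this
    exact this.resolve_left (card_ne_zero' G)
  · intro h
    have h1 := cmat_mul_cmat (X := X) hχ.isCharacter hχ
    have h2 : (cmat X χ)ᴴ = cmat X χ := by
      ext a b
      simp only [cmat, conjTranspose_apply, Matrix.sum_apply, Matrix.smul_apply, pmat, of_apply,
        star_sum, smul_eq_mul]
      refine Fintype.sum_equiv (Equiv.inv G) _ _ fun g => ?_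
      simp only [Equiv.inv_apply, hχ.isCharacter.apply_inv, inv_smul_eq_iff, eq_comm (a := b)]
      split_ifs <;> simp
    rw [← trace_conjTranspose_mul_self_eq_zero_iff, h2, h1, trace_smul, trace_cmat, h]
    simp

theorem linearIndependent_cmat :
    LinearIndependent ℂ fun χ : {χ : IrrCharacter G // classInner χ.1 (pchar X G) ≠ 0} =>
      cmat X χ.1.1 := by
  classical
  rw [Fintype.linearIndependent_iff]
  intro c hc ψ
  have h := congrArg (· * cmat X ψ.1.1) hc
  simp only [Finset.sum_mul, smul_mul_assoc, zero_mul,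
    fun χ : {χ : IrrCharacter G // classInner χ.1 (pchar X G) ≠ 0} =>
      cmat_mul_cmat (X := X) χ.1.2.isCharacter ψ.1.2, smul_smul] at h
  rw [← Finset.sum_smul, Finset.sum_eq_single ψ, ψ.1.2.classInner_self, smul_eq_zero,
    cmat_eq_zero_iff ψ.1.2] at h
  · rcases h with h | h
    · simpa [card_ne_zero' G, ψ.1.2.apply_one_ne_zero] using h
    · exact absurd h ψ.2
  · intro χ _ hne
    rw [ψ.1.2.classInner_of_ne χ.1.2 fun e => hne (Subtype.ext (Subtype.ext e.symm))]
    simp
  · simp

theorem cmat_mem_span {f : G → ℂ} (hf : IsClassFunction G f) : cmat X f ∈ Submodule.span ℂ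
    (Set.range fun χ : {χ : IrrCharacter G // classInner χ.1 (pchar X G) ≠ 0} => cmat X χ.1.1) := by
  have : cmat X f = ∑ χ : IrrCharacter G, classInner f χ • cmat X χ.1 := by
    conv_lhs => rw [hf.eq_sum_irr]
    simp only [cmat, Finset.sum_apply, Pi.smul_apply, Finset.sum_smul, Finset.smul_sum, smul_smul,
      smul_eq_mul]
    exact Finset.sum_comm
  rw [this]
  refine Submodule.sum_mem _ fun χ _ => Submodule.smul_mem _ _ ?_
  by_cases h : classInner χ.1 (pchar X G) = 0
  · rw [(cmat_eq_zero_iff χ.2).2 h]; exact Submodule.zero_mem _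
  · exact Submodule.subset_span ⟨⟨χ, h⟩, rfl⟩

end perm

variable {W B : Type*} [Group W] [Fintype W] [DecidableEq W]

/-- the matrix attached to a function on the Weyl group -/
def dmat {X : Type*} (δ : X → X → W) : (W → ℂ) →ₗ[ℂ] Matrix X X ℂ where
  toFun v := Matrix.of fun a b => v (δ a b)
  map_add' _ _ := rfl
  map_smul' _ _ := rfl

theorem dmat_apply {X : Type*} (δ : X → X → W) (v : W → ℂ) (a b : X) :
    dmat δ v a b = v (δ a b) := rfl

/-- a strongly transitive action on a set with a Weyl distance and equal parameters `q` -/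
structure WScheme (G X : Type*) [Group G] [MulAction G X] [Fintype X] (s : B → W) (q : ℕ)
    (δ : X → X → W) : Prop where
  nonempty : Nonempty X
  q_pos : 0 < q
  smul : ∀ (g : G) a b, δ (g • a) (g • b) = δ a b
  symm : ∀ a b, δ b a = (δ a b)⁻¹
  eq_one : ∀ a b, δ a b = 1 ↔ a = b
  trans : ∀ a b a' b', δ a b = δ a' b' → ∃ g : G, g • a = a' ∧ g • b = b'
  card : ∀ a w, Nat.card {b // δ a b = w} = q ^ len s w
  mul : ∀ i w, dmat δ (Pi.single (s i) 1) * dmat δ (Pi.single w 1) =
    if len s w < len s (s i * w) then dmat δ (Pi.single (s i * w) 1)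
    else (q : ℂ) • dmat δ (Pi.single (s i * w) 1) + ((q : ℂ) - 1) • dmat δ (Pi.single w 1)

namespace WScheme

variable {G X : Type*} [Group G] [Fintype G] [MulAction G X] [Fintype X] [DecidableEq X]
  {s : B → W} {q : ℕ} {δ : X → X → W} (S : WScheme G X s q δ) {P : B → Set W} (h : Exch s P)
include S

theorem exists_eq (a : X) (w : W) : ∃ b, δ a b = w := by
  have h1 : Nat.card {b // δ a b = w} ≠ 0 := by
    rw [S.card]; exact pow_ne_zero _ S.q_pos.ne'
  obtain ⟨⟨b, hb⟩⟩ := (Nat.card_ne_zero.1 h1).1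
  exact ⟨b, hb⟩

theorem dmat_injective : Function.Injective (dmat δ) := by
  intro v v' e
  funext w
  obtain ⟨a⟩ := S.nonempty
  obtain ⟨b, rfl⟩ := S.exists_eq a w
  exact congrFun (congrFun e a) b

theorem exists_dmat {M : Matrix X X ℂ} (hM : ∀ (g : G) a b, M (g • a) (g • b) = M a b) :
    ∃ v, dmat δ v = M := by
  obtain ⟨a₀⟩ := S.nonempty
  choose b hb using S.exists_eq a₀
  refine ⟨fun w => M a₀ (b w), ?_⟩
  ext x y
  obtain ⟨g, h1, h2⟩ := S.trans _ _ _ _ (hb (δ x y))
  change M a₀ (b (δ x y)) = M x y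
  rw [← hM g, h1, h2]

theorem dmat_smul_smul (v : W → ℂ) (g : G) (a b : X) : dmat δ v (g • a) (g • b) = dmat δ v a b :=
  congrArg v (S.smul g a b)

theorem dmat_one : dmat δ (Pi.single 1 1) = 1 := by
  ext a b
  change (Pi.single 1 1 : W → ℂ) (δ a b) = _
  simp only [Pi.single_apply, S.eq_one, one_apply]

theorem dmat_transpose (v : W → ℂ) : (dmat δ v)ᵀ = dmat δ fun w => v w⁻¹ := by
  ext a b
  exact congrArg v (S.symm a b)

theorem dmat_single_conjTranspose (w : W) :
    (dmat δ (Pi.single w 1))ᴴ = dmat δ (Pi.single w⁻¹ 1) := by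
  ext a b
  change star ((Pi.single w 1 : W → ℂ) (δ b a)) = (Pi.single w⁻¹ 1 : W → ℂ) (δ a b)
  simp only [Pi.single_apply, S.symm a b, inv_eq_iff_eq_inv]
  split_ifs <;> simp

include h

theorem dmat_heL (i : B) (v : W → ℂ) :
    dmat δ (heL s (q : ℂ) i *ᵥ v) = dmat δ (Pi.single (s i) 1) * dmat δ v := by
  rw [← Finset.univ_sum_single v, mulVec_sum, map_sum, map_sum, Finset.mul_sum]
  refine Finset.sum_congr rfl fun w _ => ?_
  rw [← mul_one (v w), ← smul_eq_mul, Pi.single_smul, mulVec_smul, map_smul, map_smul,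
    mul_smul_comm, S.mul, h.heL_single]
  split_ifs
  · rfl
  · rw [map_add, map_smul, map_smul]

theorem dmat_heR (i : B) (v : W → ℂ) :
    dmat δ (heR s (q : ℂ) i *ᵥ v) = dmat δ v * dmat δ (Pi.single (s i) 1) := by
  apply transpose_injective
  rw [transpose_mul, S.dmat_transpose, S.dmat_transpose, S.dmat_transpose]
  have e1 : (fun w => (Pi.single (s i) 1 : W → ℂ) w⁻¹) = Pi.single (s i) 1 := by
    funext w
    simp only [Pi.single_apply, inv_eq_iff_eq_inv, h.inv_s]
  rw [e1, ← S.dmat_heL h]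
  congr 1
  funext u
  rw [heR_mulVec, heL_mulVec, h.len_mul_s, inv_inv, h.len_inv, _root_.mul_inv_rev, h.inv_s]

theorem dmat_heLw (w : W) (v : W → ℂ) :
    dmat δ (heLw s (q : ℂ) w *ᵥ v) = dmat δ (Pi.single w 1) * dmat δ v := by
  have key : ∀ (l : List B) (v : W → ℂ), dmat δ ((l.map (heL s (q : ℂ))).prod *ᵥ v) =
      dmat δ ((l.map (heL s (q : ℂ))).prod *ᵥ Pi.single 1 1) * dmat δ v := by
    intro l v
    induction l with
    | nil => rw [List.map_nil, List.prod_nil, one_mulVec, one_mulVec, S.dmat_one, one_mul]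
    | cons i l ih =>
      rw [List.map_cons, List.prod_cons, ← mulVec_mulVec, ← mulVec_mulVec, S.dmat_heL h,
        S.dmat_heL h, ih, mul_assoc]
  rw [← h.heLw_single (q : ℂ) w]
  exact key _ v

theorem dmat_heRw (w : W) (v : W → ℂ) :
    dmat δ (heRw s (q : ℂ) w *ᵥ v) = dmat δ v * dmat δ (Pi.single w⁻¹ 1) := by
  have key : ∀ (l : List B) (v : W → ℂ), dmat δ ((l.map (heR s (q : ℂ))).prod *ᵥ v) =
      dmat δ v * dmat δ ((l.map (heR s (q : ℂ))).prod *ᵥ Pi.single 1 1) := by
    intro l v
    induction l with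
    | nil => rw [List.map_nil, List.prod_nil, one_mulVec, one_mulVec, S.dmat_one, mul_one]
    | cons i l ih =>
      rw [List.map_cons, List.prod_cons, ← mulVec_mulVec, ← mulVec_mulVec, S.dmat_heR h,
        S.dmat_heR h, ih, mul_assoc]
  rw [← h.heRw_single (q : ℂ) w]
  exact key _ v

theorem dmat_heTau (v : W → ℂ) : dmat δ (heTau s (q : ℂ) *ᵥ v) =
    ∑ w, (q : ℂ) ^ (maxLen s - len s w) •
      (dmat δ (Pi.single w 1) * (dmat δ v * dmat δ (Pi.single w⁻¹ 1))) := by
  rw [heTau, sum_mulVec, map_sum]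
  refine Finset.sum_congr rfl fun w _ => ?_
  rw [smul_mulVec, map_smul, ← mulVec_mulVec, S.dmat_heLw h, S.dmat_heRw h]

theorem mem_ker_iff [Fintype B] (v : W → ℂ) : v ∈ LinearMap.ker (heC s (q : ℂ)).mulVecLin ↔
    ∀ i, Commute (dmat δ (Pi.single (s i) 1)) (dmat δ v) := by
  rw [LinearMap.mem_ker, mulVecLin_apply, heC_mulVec_eq_zero_iff]
  refine forall_congr' fun i => ?_
  rw [← S.dmat_injective.eq_iff, S.dmat_heL h, S.dmat_heR h]
  rfl

theorem card_le_finrank_ker [Fintype B] :
    Nat.card {χ : IrrCharacter G // classInner χ.1 (pchar X G) ≠ 0} ≤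
      Module.finrank ℂ (LinearMap.ker (heC s (q : ℂ)).mulVecLin) := by
  classical
  have : ∀ χ : {χ : IrrCharacter G // classInner χ.1 (pchar X G) ≠ 0},
      ∃ v : LinearMap.ker (heC s (q : ℂ)).mulVecLin, dmat δ v = cmat X χ.1.1 := by
    intro χ
    obtain ⟨v, hv⟩ := S.exists_dmat (cmat_smul_smul (X := X) χ.1.2.isClassFunction)
    exact ⟨⟨v, (S.mem_ker_iff h v).2 fun i => hv ▸ commute_cmat _ (S.dmat_smul_smul _)⟩, hv⟩
  choose v hv using this
  rw [Nat.card_eq_fintype_card]
  refine LinearIndependent.fintype_card_le_finrank (b := v)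
    (LinearIndependent.of_comp ((dmat δ).domRestrict _) ?_)
  convert linearIndependent_cmat (G := G) (X := X) using 1
  funext χ
  exact hv χ

theorem finrank_ker_le_rank [Fintype B] :
    Module.finrank ℂ (LinearMap.ker (heC s (q : ℂ)).mulVecLin) ≤ (heTau s (q : ℂ)).rank := by
  have hc : (∑ w, (q : ℂ) ^ (maxLen s - len s w) •
      (dmat δ (Pi.single w 1) * dmat δ (Pi.single w⁻¹ 1))).PosDef := by
    have hq : (0 : ℂ) < q := Nat.cast_pos.2 S.q_pos
    rw [← Finset.add_sum_erase _ _ (Finset.mem_univ 1), inv_one, S.dmat_one, one_mul]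
    refine (PosDef.one.smul (pow_pos hq _)).add_posSemidef (posSemidef_sum _ fun w _ => ?_)
    rw [← S.dmat_single_conjTranspose]
    exact (posSemidef_self_mul_conjTranspose _).smul (pow_pos hq _).le
  refine LinearMap.finrank_le_finrank_of_injective
    (f := (heTau s (q : ℂ)).mulVecLin.rangeRestrict.domRestrict _) ?_
  rw [injective_iff_map_eq_zero]
  rintro ⟨v, hv⟩ h0
  have h1 : heTau s (q : ℂ) *ᵥ v = 0 := congrArg Subtype.val h0
  have h2 : ∀ w, Commute (dmat δ (Pi.single w 1)) (dmat δ v) := by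
    intro w
    obtain ⟨l, hl, rfl⟩ := h.exists_reduced w
    induction l with
    | nil => rw [wp_nil, S.dmat_one]; exact Commute.one_left _
    | cons i l ih =>
      have h3 := h.reduced_tail hl
      have h4 := S.mul i (wp s l)
      rw [wp_cons, List.length_cons] at hl
      rw [if_pos (by omega)] at h4
      rw [wp_cons, ← h4]
      exact ((S.mem_ker_iff h v).1 hv i).mul_left (ih h3)
  have h3 := S.dmat_heTau h v
  rw [h1, map_zero] at h3
  simp only [← mul_assoc, (h2 _).eq] at h3
  simp only [mul_assoc, ← mul_smul_comm, ← Finset.mul_sum] at h3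
  simp only [mul_smul_comm] at h3
  exact Subtype.ext (S.dmat_injective (by
    rw [← hc.isUnit.mul_left_inj, ← h3]; simp))

omit h in
theorem card_smul_pair (x a y b : X) :
    (Nat.card {g : G // g • y = x ∧ g • b = a} : ℂ) * (Fintype.card X * q ^ len s (δ x a)) =
      if δ y b = δ x a then (Nat.card G : ℂ) else 0 := by
  split_ifs with e
  · obtain ⟨g, h1, h2⟩ := S.trans _ _ _ _ e
    have h3 := card_smul_eq_mul_ncard (G := G) (y, b) (x, a) ⟨g, Prod.ext h1 h2⟩
    have h4 : Nat.card (MulAction.orbit G (y, b)) = Fintype.card X * q ^ len s (δ x a) := by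
      have : MulAction.orbit G (y, b) ≃ Σ z : X, {c // δ z c = δ x a} :=
        ⟨fun p => ⟨p.1.1, p.1.2, by
            obtain ⟨_, g, rfl⟩ := p
            exact (S.smul g y b).trans e⟩,
          fun p => ⟨(p.1, p.2.1), by
            obtain ⟨g, h1, h2⟩ := S.trans _ _ _ _ (e.trans p.2.2.symm)
            exact ⟨g, Prod.ext h1 h2⟩⟩, fun _ => rfl, fun _ => rfl⟩
      rw [Nat.card_congr this, Nat.card_sigma]
      simp only [S.card, Finset.sum_const, Finset.card_univ, smul_eq_mul]
    rw [h4] at h3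
    simp only [Prod.smul_mk, Prod.mk.injEq] at h3
    exact_mod_cast h3
  · have : IsEmpty {g : G // g • y = x ∧ g • b = a} :=
      ⟨fun ⟨g, h1, h2⟩ => e (by rw [← h1, ← h2, S.smul])⟩
    simp

theorem smul_dmat_heTau (v : W → ℂ) : (Nat.card G : ℂ) • dmat δ (heTau s (q : ℂ) *ᵥ v) =
    ((Fintype.card X : ℂ) * q ^ maxLen s) • cmat X fun g : G => ∑ b, dmat δ v (g • b) b := by
  ext x y
  rw [S.dmat_heTau h]
  calc _ = ∑ a, ∑ b, dmat δ v a b * ((q : ℂ) ^ (maxLen s - len s (δ x a)) *
        if δ y b = δ x a then (Nat.card G : ℂ) else 0) := by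
        simp only [Matrix.smul_apply, Matrix.sum_apply, mul_apply, smul_eq_mul, Finset.mul_sum]
        rw [Finset.sum_comm]
        refine Finset.sum_congr rfl fun a _ => ?_
        rw [Finset.sum_comm]
        refine Finset.sum_congr rfl fun b _ => ?_
        rw [Finset.sum_eq_single (δ x a)]
        · change _ * (_ * ((Pi.single (δ x a) 1 : W → ℂ) (δ x a) *
            (_ * (Pi.single (δ x a)⁻¹ 1 : W → ℂ) (δ b y)))) = _
          rw [Pi.single_eq_same, Pi.single_apply, S.symm y b]
          simp only [_root_.inv_inj]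
          split_ifs <;> ring
        · intro w _ hw
          change _ * (_ * ((Pi.single w 1 : W → ℂ) (δ x a) * _)) = _
          rw [Pi.single_eq_of_ne hw.symm]
          simp
        · simp
    _ = ∑ a, ∑ b, (Fintype.card X * q ^ maxLen s) *
        ∑ g : G, if g • y = x ∧ g • b = a then dmat δ v a b else 0 := by
        refine Finset.sum_congr rfl fun a _ => Finset.sum_congr rfl fun b _ => ?_
        rw [← S.card_smul_pair, ← Finset.sum_filter, Finset.sum_const, nsmul_eq_mul,
          Nat.card_eq_fintype_card, Fintype.card_subtype]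
        conv_rhs => rw [← Nat.sub_add_cancel (len_le_maxLen s (δ x a)), pow_add]
        ring
    _ = _ := by
        simp only [cmat, Matrix.smul_apply, Matrix.sum_apply, smul_eq_mul, pmat, of_apply,
          ← Finset.mul_sum]
        congr 1
        rw [Finset.sum_comm]
        simp only [Finset.sum_comm (s := (Finset.univ : Finset X)) (t := (Finset.univ : Finset G))]
        refine Finset.sum_congr rfl fun g _ => ?_
        by_cases e : g • y = x <;> simp [e]

theorem rank_le_card :
    (heTau s (q : ℂ)).rank ≤ Nat.card {χ : IrrCharacter G // classInner χ.1 (pchar X G) ≠ 0} := by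
  classical
  rw [Nat.card_eq_fintype_card]
  refine le_trans ?_ (finrank_range_le_card (R := ℂ)
    fun χ : {χ : IrrCharacter G // classInner χ.1 (pchar X G) ≠ 0} => cmat X χ.1.1)
  rw [rank, (Submodule.equivMapOfInjective _ S.dmat_injective _).finrank_eq]
  refine Submodule.finrank_mono ?_
  rintro _ ⟨_, ⟨v, rfl⟩, rfl⟩
  rw [← Submodule.smul_mem_iff _ (card_ne_zero' G), mulVecLin_apply, S.smul_dmat_heTau h]
  refine Submodule.smul_mem _ _ (cmat_mem_span fun g k => ?_)
  refine (Fintype.sum_equiv (MulAction.toPerm k) _ _ fun b => ?_).symm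
  rw [MulAction.toPerm_apply, mul_smul, mul_smul, inv_smul_smul, S.dmat_smul_smul]

end WScheme

theorem card_const_le [Fintype B] {s : B → W} {P : B → Set W} (h : Exch s P)
    {G X : Type*} [Group G] [Fintype G] [MulAction G X] [Fintype X] [DecidableEq X]
    {q : ℕ} {δ : X → X → W} (S : WScheme G X s q δ)
    {G' X' : Type*} [Group G'] [Fintype G'] [MulAction G' X'] [Fintype X'] [DecidableEq X']
    {q' : ℕ} {δ' : X' → X' → W} (S' : WScheme G' X' s q' δ') :
    Nat.card {χ : IrrCharacter G // classInner χ.1 (pchar X G) ≠ 0} ≤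
      Nat.card {χ : IrrCharacter G' // classInner χ.1 (pchar X' G') ≠ 0} := by
  have h1 := S.card_le_finrank_ker h
  have h2 := S.finrank_ker_le_rank h
  have h3 := h.rank_heC_add_rank_heTau_le (q' : ℂ) (q : ℂ)
  have h4 := S'.finrank_ker_le_rank h
  have h5 := S'.rank_le_card h
  have h6 := (heC s (q' : ℂ)).mulVecLin.finrank_range_add_finrank_ker
  rw [Module.finrank_fintype_fun_eq_card] at h6
  unfold rank at h2 h3 h4 h5
  omega

theorem wScheme_thin {s : B → W} {P : B → Set W} (h : Exch s P) :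
    WScheme W W s 1 fun a b => a⁻¹ * b where
  nonempty := ⟨1⟩
  q_pos := one_pos
  smul g a b := by simp [mul_assoc]
  symm a b := by simp
  eq_one a b := inv_mul_eq_one
  trans a b a' b' e := ⟨a' * a⁻¹, by simp, by rw [smul_eq_mul, mul_assoc, e]; simp⟩
  card a w := by
    rw [one_pow, Nat.card_eq_one_iff_exists]
    exact ⟨⟨a * w, by simp⟩, fun ⟨b, hb⟩ => Subtype.ext (by simp [← hb])⟩
  mul i w := by
    rw [Nat.cast_one, sub_self, zero_smul, one_smul, add_zero, ite_self]
    ext a b
    simp only [mul_apply, dmat_apply, Pi.single_apply,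
      inv_mul_eq_iff_eq_mul, ite_mul, one_mul, zero_mul, Finset.sum_ite_eq', Finset.mem_univ,
      if_true, mul_assoc]

theorem card_const_thin : Nat.card {χ : IrrCharacter W // classInner χ.1 (pchar W W) ≠ 0} =
    Nat.card (ConjClasses W) := by
  rw [← card_irr_eq_card_conjClasses]
  refine Nat.card_congr (Equiv.subtypeUnivEquiv fun χ => ?_)
  have : pchar W W = regChar W := by
    funext g
    by_cases hg : g = 1
    · rw [hg, regChar_one, pchar, MulAction.fixedBy_one_eq_univ, Nat.card_univ]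
    · have : IsEmpty (MulAction.fixedBy W g) := ⟨fun ⟨x, hx⟩ => hg (mul_eq_right.1 hx)⟩
      rw [regChar_of_ne hg, pchar]
      simp
  rw [this, classInner_regChar_right]
  exact χ.2.apply_one_ne_zero

theorem qw_eq_pow {G : Type*} [Group G] [Finite G] (P : BNPair G) {q : ℕ}
    (hq : ∀ s, qw P (sim P s) = q) (w : Weyl P) : qw P w = q ^ len (sim P) w := by
  have E := bn_exch P
  refine E.WJ_induction (J := Set.univ) (p := fun w => qw P w = q ^ len (sim P) w) ?_ ?_
    (by rw [E.WJ_univ]; trivial)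
  · rw [qw_one, len_one, pow_zero]
  · intro j _ u _ hlt ih
    have := E.len_s_mul_ne j u
    rw [qw_mul_of_len_add (by rw [E.len_s]; omega), hq, ih, ← pow_succ']
    congr 1
    omega

theorem wScheme_bn {G : Type*} [Group G] [Finite G] (P : BNPair G) [Fintype (Weyl P)]
    [DecidableEq (Weyl P)] [Fintype (G ⧸ P.B)] {q : ℕ} (hq0 : 0 < q)
    (hq : ∀ s, qw P (sim P s) = q) : WScheme G (G ⧸ P.B) (sim P) q (wdist P) where
  nonempty := inferInstance
  q_pos := hq0
  smul := wdist_smul
  symm := wdist_symm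
  eq_one _ _ := wdist_eq_one_iff
  trans _ _ _ _ := exists_smul_eq_of_wdist_eq
  card a w := by rw [card_wdist_eq, qw_eq_pow P hq]
  mul i w := by
    classical
    have E := bn_exch P
    have e : ∀ w, dmat (wdist P) (Pi.single w 1) = hT P ℂ w := fun w => by
      ext a b
      rw [hT_apply]
      change (Pi.single w 1 : Weyl P → ℂ) _ = _
      rw [Pi.single_apply]
      congr
    simp only [e]
    split_ifs with c
    · exact hT_sim_mul_of_asc (E.mem_iff_len.2 c)
    · have h1 := hT_sim_mul_of_asc (R := ℂ) (E.s_mul_mem_of_not_mem (mt E.mem_iff_len.1 c))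
      rw [E.s_mul_s_mul] at h1
      rw [← h1, ← mul_assoc, hT_sim_sq, hq, add_mul, smul_mul_assoc, smul_mul_assoc, one_mul]

/-- The number of irreducible constituents of the permutation character on the cosets of `B`. -/
theorem card_constituents_bn {G : Type*} [Group G] [Finite G] (P : BNPair G) {q : ℕ} (hq0 : 0 < q)
    (hq : ∀ s, qw P (sim P s) = q) :
    Nat.card {χ : IrrCharacter G // ∃ φ : G → ℂ, IsCharacter G φ ∧
      fixedPointCharacter P.B = (χ : G → ℂ) + φ} = Nat.card (ConjClasses (Weyl P)) := by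
  classical
  have := Fintype.ofFinite G
  have := Fintype.ofFinite (Weyl P)
  have := Fintype.ofFinite P.S
  have := Fintype.ofFinite (G ⧸ P.B)
  have E := bn_exch P
  rw [← card_const_thin, ← le_antisymm (card_const_le E (wScheme_bn P hq0 hq) (wScheme_thin E))
    (card_const_le E (wScheme_thin E) (wScheme_bn P hq0 hq))]
  refine Nat.card_congr (Equiv.subtypeEquivRight fun χ => ?_)
  have hπ : IsCharacter G (pchar (G ⧸ P.B) G) := isCharacter_perm _
  change (∃ φ : G → ℂ, IsCharacter G φ ∧ pchar (G ⧸ P.B) G = (χ : G → ℂ) + φ) ↔ _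
  constructor
  · rintro ⟨φ, hφ, e⟩
    obtain ⟨n, hn⟩ := χ.2.isCharacter.classInner_nat hφ
    rw [e, classInner_add_right, χ.2.classInner_self, hn]
    exact_mod_cast (by omega : 1 + n ≠ 0)
  · intro hne
    exact ⟨_, hπ.sub_irr χ.2 (mt (classInner_eq_zero_comm _ _).1 hne), by abel⟩

theorem qw_sim_bnTop {Φ ι : Type*} {R : H64.WData Φ ι} {G : Type*} [Group G] [Finite Φ]
    (T : H64.RGD R G) (hT : T.Gp = ⊤) (i : ι) :
    qw (bnTop T hT) (sim (bnTop T hT) (sEq T hT i)) = Nat.card (T.X (R.p i)) := by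
  symm
  refine Nat.card_eq_of_bijective (fun x => ⟨QuotientGroup.mk (x * T.n i), ?_⟩) ⟨?_, ?_⟩
  · rw [wdist_mk, inv_one, one_mul, wOf_mul_left (P := bnTop T hT)
      (T.U_le_B (T.X_le_U (R.pos_p i) x.2))]
    exact wOf_S (sEq T hT i)
  · intro x y e
    have h1 : (x * T.n i)⁻¹ * (y * T.n i) ∈ T.B := QuotientGroup.eq.1 (congrArg Subtype.val e)
    have h2 := (T.act_n i).inv.conj_mem (mul_mem (inv_mem x.2) y.2)
    rw [R.sW_inv, R.sW_val, R.s_p, inv_inv] at h2
    rw [show (x * T.n i)⁻¹ * (y * T.n i) = (T.n i)⁻¹ * ((x : G)⁻¹ * y) * T.n i by group] at h1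
    have h3 := T.eq_one_of_mem_B_V h1 (T.X_le_V (R.not_pos_neg_p i) h2)
    rw [mul_assoc, inv_mul_eq_one, eq_comm, mul_eq_right, inv_mul_eq_one] at h3
    exact Subtype.ext h3
  · rintro ⟨y, hy⟩
    obtain ⟨g, rfl⟩ := QuotientGroup.mk_surjective y
    rw [wdist_mk, inv_one, one_mul, wOf_eq_iff] at hy
    obtain ⟨b, hb, b', hb', rfl⟩ := (inCell_sim (sEq T hT i)).exists_eq hy
    obtain ⟨u, hu, h, hh, rfl⟩ := T.mem_B.1 hb
    obtain ⟨x, hx, a, ha, rfl⟩ := T.mem_U_split' i hu
    refine ⟨⟨x, hx⟩, Subtype.ext (QuotientGroup.eq.2 ?_)⟩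
    rw [sEq_val, show (x * T.n i)⁻¹ * (x * a * h * T.n i * b') =
      ((T.n i)⁻¹ * a * T.n i) * ((T.n i)⁻¹ * h * T.n i) * b' by group]
    exact T.B.mul_mem (T.B.mul_mem (T.U_le_B (T.Up_le_U i (T.n_inv_conj_Up i ha)))
      (T.H_le_B (T.n_inv_H i hh))) hb'

theorem card_conjClasses_congr {A A' : Type*} [Group A] [Group A'] (e : A ≃* A') :
    Nat.card (ConjClasses A) = Nat.card (ConjClasses A') := by
  refine Nat.card_eq_of_bijective (ConjClasses.map e.toMonoidHom) ⟨?_, ?_⟩
  · intro x y h
    obtain ⟨a, rfl⟩ := ConjClasses.mk_surjective x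
    obtain ⟨b, rfl⟩ := ConjClasses.mk_surjective y
    have h1 : IsConj (e a) (e b) := ConjClasses.mk_eq_mk_iff_isConj.1 h
    simpa [ConjClasses.mk_eq_mk_iff_isConj] using e.symm.toMonoidHom.map_isConj h1
  · exact ConjClasses.map_surjective e.surjective

theorem card_constituents_rgd {Φ ι : Type*} {R : H64.WData Φ ι} {G : Type*} [Group G] [Finite Φ]
    [Finite G] (T : H64.RGD R G) (hT : T.Gp = ⊤) {q : ℕ} (hq0 : 0 < q)
    (hq : ∀ i, Nat.card (T.X (R.p i)) = q) :
    Nat.card {χ : IrrCharacter G // ∃ φ : G → ℂ, IsCharacter G φ ∧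
      fixedPointCharacter T.B = (χ : G → ℂ) + φ} = Nat.card (ConjClasses R.W) := by
  rw [← card_conjClasses_congr (wEq T hT)]
  refine card_constituents_bn (bnTop T hT) hq0 fun s => ?_
  obtain ⟨i, rfl⟩ := (sEq T hT).surjective s
  rw [qw_sim_bnTop, hq]

end H67
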